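import Cfsg.Agent.H439.CC.Defs

/-!
# S4884, classical groups in cross characteristic: the factorization (E1) of `Θ` (helper376)
-/

set_option autoImplicit false

open Cfsg Finset

namespace Cfsg.Agent.H376.CC

open Cfsg.Agent.H439.CC

universe u v

section Gen

variable {α : Type*} [Fintype α]

/-- from a sum over the values to a sum over the objects -/
theorem sum_card (p : α → Prop) [DecidablePred p] (R : α → Finset ℕ) (Q : α → Finset ℕ → Prop) (hQ : ∀ c K, Q c K ↔ p c ∧ R c = K)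
    (S : Finset (Finset ℕ)) (w : Finset ℕ → ℤ) :
    ∑ K ∈ S, w K * (Nat.card {c // Q c K} : ℤ) = ∑ c ∈ univ.filter (fun c => p c ∧ R c ∈ S), w (R c) := by
  classical
  have h1 : ∀ K ∈ S, w K * (Nat.card {c // Q c K} : ℤ) = ∑ c ∈ univ.filter (fun c => p c ∧ R c = K), w (R c) := by
    intro K _
    have h2 : ∀ c ∈ univ.filter (fun c => p c ∧ R c = K), w (R c) = w K := by
      intro c hc
      rw [(mem_filter.1 hc).2.2]
    rw [sum_congr rfl h2, sum_const, nsmul_eq_mul, mul_comm]
    congr 2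
    rw [Nat.card_eq_fintype_card, Fintype.card_subtype]
    congr 1
    ext c
    simp only [mem_filter, mem_univ, true_and, hQ]
  rw [sum_congr rfl h1]
  rw [sum_comm' (s' := fun c => {R c}) (t' := univ.filter (fun c => p c ∧ R c ∈ S))]
  · simp only [sum_singleton]
  · intro K c
    simp only [mem_filter, mem_univ, true_and, mem_singleton]
    constructor
    · rintro ⟨h, h', rfl⟩
      exact ⟨rfl, h', h⟩
    · rintro ⟨rfl, h', h⟩
      exact ⟨h, h', rfl⟩

end Gen

section Poset

variable {P : Type*} [PartialOrder P] [Fintype P]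

/-- relative ranks -/
def RR (rk : P → ℕ) (A : P) (c : Finset P) : Finset ℕ := c.image fun x => rk x - rk A

open Classical in
/-- the chains above `A` with relative ranks at most `s` -/
noncomputable def Up (rk : P → ℕ) (A : P) (s : ℕ) : Finset (Finset P) :=
  univ.filter fun c => (IsChain (· ≤ ·) (c : Set P) ∧ (∀ x ∈ c, A < x)) ∧ RR rk A c ∈ (Icc 1 s).powerset

open Classical in
/-- the chains in `(A, B]` containing `B` -/
noncomputable def Ch (A B : P) : Finset (Finset P) :=
  univ.filter fun c => IsChain (· ≤ ·) (c : Set P) ∧ (∀ x ∈ c, A < x ∧ x ≤ B) ∧ B ∈ c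

theorem mem_Up {rk : P → ℕ} {A : P} {s : ℕ} {c : Finset P} :
    c ∈ Up rk A s ↔ (IsChain (· ≤ ·) (c : Set P) ∧ (∀ x ∈ c, A < x)) ∧ RR rk A c ∈ (Icc 1 s).powerset := by
  classical
  rw [Up, mem_filter]
  exact ⟨fun h => h.2, fun h => ⟨mem_univ _, h⟩⟩

theorem mem_Ch {A B : P} {c : Finset P} :
    c ∈ Ch A B ↔ IsChain (· ≤ ·) (c : Set P) ∧ (∀ x ∈ c, A < x ∧ x ≤ B) ∧ B ∈ c := by
  classical
  rw [Ch, mem_filter]
  exact ⟨fun h => h.2, fun h => ⟨mem_univ _, h⟩⟩

theorem TT_eq (rk : P → ℕ) (ds : List ℕ) (A : P) : TT rk ds A = ∑ c ∈ Up rk A ds.sum, coL ds (RR rk A c) := by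
  classical
  have h1 := sum_card (fun c : Finset P => IsChain (· ≤ ·) (c : Set P) ∧ (∀ x ∈ c, A < x)) (RR rk A)
    (fun c K => IsChain (· ≤ ·) (c : Set P) ∧ (∀ x ∈ c, A < x) ∧ c.image (fun x => rk x - rk A) = K)
    (fun c K => by rw [and_assoc]; rfl) (Icc 1 ds.sum).powerset (coL ds)
  refine h1.trans (sum_congr ?_ fun _ _ => rfl)
  ext c
  rw [mem_filter, mem_Up]
  exact ⟨fun h => h.2, fun h => ⟨mem_univ _, h⟩⟩

theorem rho_eq {rk : P → ℕ} (hrk : StrictMono rk) {k : ℕ} {A B : P} (hB : rk B = rk A + k) :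
    rho rk k A B = ∑ c ∈ Ch A B, coL [k] (RR rk A c) := by
  classical
  have h1 := sum_card (fun c : Finset P => IsChain (· ≤ ·) (c : Set P) ∧ (∀ x ∈ c, A < x ∧ x ≤ B) ∧ B ∈ c) (RR rk A)
    (fun c K => IsChain (· ≤ ·) (c : Set P) ∧ (∀ x ∈ c, A < x ∧ x ≤ B) ∧ B ∈ c ∧ c.image (fun x => rk x - rk A) = K)
    (fun c K => by rw [and_assoc, and_assoc]; rfl) (Icc 1 k).powerset (coL [k])
  refine h1.trans (sum_congr ?_ fun _ _ => rfl)
  ext c
  rw [mem_filter, mem_Ch]
  constructor
  · exact fun h => h.2.1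
  · refine fun h => ⟨mem_univ _, h, ?_⟩
    rw [mem_powerset]
    intro n hn
    obtain ⟨x, hx, rfl⟩ := mem_image.1 hn
    have h1 := hrk (h.2.1 x hx).1
    have h2 := hrk.monotone (h.2.1 x hx).2
    rw [mem_Icc]
    omega

/-- splitting of the coefficients -/
theorem coL_split {k s : ℕ} {ds : List ℕ} {K K1 K2 : Finset ℕ} (h1 : K1 ⊆ Icc 1 k) (hk : k ∈ K1) (h2 : K2 ⊆ Icc 1 s)
    (hK : K = K1 ∪ K2.image fun x => x + k) : coL (k :: ds) K = coL [k] K1 * coL ds K2 := by
  subst hK
  have hk' : k ∈ K1 ∪ K2.image fun x => x + k := mem_union_left _ hk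
  have h1' : ∀ x ∈ K1, x ≤ k := fun x hx => (mem_Icc.1 (h1 hx)).2
  have h2' : ∀ x ∈ K2, 1 ≤ x := fun x hx => (mem_Icc.1 (h2 hx)).1
  have e1 : ((K1 ∪ K2.image fun x => x + k).filter fun x => x < k) = K1.filter fun x => x < k := by
    ext x
    simp only [mem_filter, mem_union, mem_image]
    constructor
    · rintro ⟨h | ⟨z, _, rfl⟩, hx⟩
      · exact ⟨h, hx⟩
      · omega
    · exact fun h => ⟨Or.inl h.1, h.2⟩
  have e2 : ((K1 ∪ K2.image fun x => x + k).filter fun x => k < x).image (fun x => x - k) = K2 := by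
    ext x
    simp only [mem_filter, mem_union, mem_image]
    constructor
    · rintro ⟨z, ⟨h | ⟨w, hw, rfl⟩, hz⟩, rfl⟩
      · have := h1' z h
        omega
      · rwa [Nat.add_sub_cancel]
    · intro hx
      have := h2' x hx
      exact ⟨x + k, ⟨Or.inr ⟨x, hx, rfl⟩, by omega⟩, Nat.add_sub_cancel _ _⟩
  have e3 : (K1 ∪ K2.image fun x => x + k).min' ⟨k, hk'⟩ = K1.min' ⟨k, hk⟩ := by
    apply le_antisymm
    · exact min'_le _ _ (mem_union_left _ (min'_mem _ _))
    · apply le_min'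
      intro x hx
      rcases mem_union.1 hx with hx | hx
      · exact min'_le _ _ hx
      · obtain ⟨z, hz, rfl⟩ := mem_image.1 hx
        have := min'_le K1 k hk
        omega
  have e4 : (K1.filter fun x => k < x) = ∅ := by
    rw [filter_eq_empty_iff]
    intro x hx
    have := h1' x hx
    omega
  rw [coL, dif_pos hk', coL, dif_pos hk, e1, e2, e3, e4, image_empty, coL, if_pos rfl, mul_one]

theorem coL_zero {k : ℕ} {ds : List ℕ} {K : Finset ℕ} (h : k ∉ K) : coL (k :: ds) K = 0 := by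
  rw [coL, dif_neg h]

end Poset

section Main

variable {P : Type*} [PartialOrder P] [Fintype P]

open Classical in
/-- the piece over `B` -/
theorem piece {rk : P → ℕ} (hrk : StrictMono rk) {k : ℕ} {ds : List ℕ} {A B : P} (hAB : A < B) (hB : rk B = rk A + k)
    (hk : 1 ≤ k) :
    ∑ c ∈ (Up rk A (k :: ds).sum).filter (fun c => B ∈ c), coL (k :: ds) (RR rk A c) = rho rk k A B * TT rk ds B := by
  rw [rho_eq hrk hB, TT_eq, sum_mul_sum, ← sum_product']
  symm
  refine sum_nbij' (fun p => p.1 ∪ p.2) (fun c => (c.filter fun x => x ≤ B, c.filter fun x => B < x)) ?_ ?_ ?_ ?_ ?_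
  · rintro ⟨c1, c2⟩ hc
    rw [mem_product, mem_Ch, mem_Up] at hc
    obtain ⟨⟨a1, a2, a3⟩, ⟨b1, b2⟩, b3⟩ := hc
    rw [mem_filter, mem_Up]
    refine ⟨⟨⟨?_, ?_⟩, ?_⟩, mem_union_left _ a3⟩
    · rw [coe_union]
      intro x hx y hy hxy
      rcases hx with hx | hx <;> rcases hy with hy | hy
      · exact a1 hx hy hxy
      · exact Or.inl ((a2 x hx).2.trans (b2 y hy).le)
      · exact Or.inr ((a2 y hy).2.trans (b2 x hx).le)
      · exact b1 hx hy hxy
    · intro x hx
      rcases mem_union.1 hx with hx | hx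
      · exact (a2 x hx).1
      · exact hAB.trans (b2 x hx)
    · rw [mem_powerset]
      intro n hn
      obtain ⟨x, hx, rfl⟩ := mem_image.1 hn
      rw [mem_Icc, List.sum_cons]
      rcases mem_union.1 hx with hx | hx
      · have h1 := hrk (a2 x hx).1
        have h2 := hrk.monotone (a2 x hx).2
        omega
      · have h1 := hrk (b2 x hx)
        have h3 := mem_Icc.1 (mem_powerset.1 b3 (mem_image_of_mem _ hx))
        omega
  · intro c hc
    rw [mem_filter, mem_Up] at hc
    obtain ⟨⟨⟨a1, a2⟩, a3⟩, a4⟩ := hc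
    rw [mem_product, mem_Ch, mem_Up]
    refine ⟨⟨?_, ?_, ?_⟩, ⟨?_, ?_⟩, ?_⟩
    · exact a1.mono (by intro x hx; exact (mem_filter.1 hx).1)
    · intro x hx
      rw [mem_filter] at hx
      exact ⟨a2 x hx.1, hx.2⟩
    · rw [mem_filter]
      exact ⟨a4, le_rfl⟩
    · exact a1.mono (by intro x hx; exact (mem_filter.1 hx).1)
    · intro x hx
      exact (mem_filter.1 hx).2
    · rw [mem_powerset]
      intro n hn
      obtain ⟨x, hx, rfl⟩ := mem_image.1 hn
      rw [mem_filter] at hx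
      have h1 := hrk hx.2
      have h3 := mem_Icc.1 (mem_powerset.1 a3 (mem_image_of_mem _ hx.1))
      rw [List.sum_cons] at h3
      rw [mem_Icc]
      omega
  · rintro ⟨c1, c2⟩ hc
    rw [mem_product, mem_Ch, mem_Up] at hc
    obtain ⟨⟨a1, a2, a3⟩, ⟨b1, b2⟩, b3⟩ := hc
    ext x
    · simp only [mem_filter, mem_union]
      constructor
      · rintro ⟨h | h, hx⟩
        · exact h
        · exact absurd hx (b2 x h).not_ge
      · exact fun h => ⟨Or.inl h, (a2 x h).2⟩
    · simp only [mem_filter, mem_union]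
      constructor
      · rintro ⟨h | h, hx⟩
        · exact absurd hx (a2 x h).2.not_gt
        · exact h
      · exact fun h => ⟨Or.inr h, b2 x h⟩
  · intro c hc
    rw [mem_filter, mem_Up] at hc
    obtain ⟨⟨⟨a1, a2⟩, a3⟩, a4⟩ := hc
    ext x
    simp only [mem_filter, mem_union]
    constructor
    · rintro (h | h)
      · exact h.1
      · exact h.1
    · intro hx
      by_cases hxB : x = B
      · exact Or.inl ⟨hx, hxB.le⟩
      · rcases a1 hx a4 hxB with h | h
        · exact Or.inl ⟨hx, h⟩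
        · exact Or.inr ⟨hx, lt_of_le_of_ne h (Ne.symm hxB)⟩
  · rintro ⟨c1, c2⟩ hc
    rw [mem_product, mem_Ch, mem_Up] at hc
    obtain ⟨⟨a1, a2, a3⟩, ⟨b1, b2⟩, b3⟩ := hc
    symm
    refine coL_split (s := ds.sum) ?_ ?_ (mem_powerset.1 b3) ?_
    · intro n hn
      obtain ⟨x, hx, rfl⟩ := mem_image.1 hn
      have h1 := hrk (a2 x hx).1
      have h2 := hrk.monotone (a2 x hx).2
      rw [mem_Icc]
      omega
    · refine mem_image.2 ⟨B, a3, by omega⟩
    · rw [RR, image_union]
      congr 1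
      rw [RR, image_image]
      refine image_congr ?_
      intro x hx
      have h1 := hrk (b2 x hx)
      simp only [Function.comp]
      omega

theorem e1 : E1.{u} := by
  classical
  intro P _ _ rk hrk k ds A hk _
  have := Fintype.ofFinite P
  rw [TT_eq]
  have h1 : ∑ᶠ B : {B : P // A < B ∧ rk B = rk A + k}, rho rk k A B.1 * TT rk ds B.1 =
      ∑ B ∈ univ.filter (fun B : P => A < B ∧ rk B = rk A + k), rho rk k A B * TT rk ds B := by
    rw [finsum_eq_sum_of_fintype]
    exact (sum_subtype (univ.filter (fun B : P => A < B ∧ rk B = rk A + k)) (p := fun B : P => A < B ∧ rk B = rk A + k)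
      (fun B => by simp) (fun B => rho rk k A B * TT rk ds B)).symm
  rw [h1]
  have h2 : ∀ B ∈ univ.filter (fun B : P => A < B ∧ rk B = rk A + k), rho rk k A B * TT rk ds B =
      ∑ c ∈ (Up rk A (k :: ds).sum).filter (fun c => B ∈ c), coL (k :: ds) (RR rk A c) := by
    intro B hB
    rw [mem_filter] at hB
    rw [piece hrk hB.2.1 hB.2.2 hk]
  rw [sum_congr rfl h2]
  -- only the chains through rank `k` count
  have h3 : ∑ c ∈ Up rk A (k :: ds).sum, coL (k :: ds) (RR rk A c) =
      ∑ c ∈ (Up rk A (k :: ds).sum).filter (fun c => k ∈ RR rk A c), coL (k :: ds) (RR rk A c) := by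
    rw [sum_filter]
    refine sum_congr rfl fun c _ => ?_
    split_ifs with h
    · rfl
    · exact coL_zero h
  rw [h3]
  have h4 : (Up rk A (k :: ds).sum).filter (fun c => k ∈ RR rk A c) =
      (univ.filter (fun B : P => A < B ∧ rk B = rk A + k)).biUnion
        (fun B => (Up rk A (k :: ds).sum).filter (fun c => B ∈ c)) := by
    ext c
    simp only [mem_filter, mem_biUnion, mem_univ, true_and]
    constructor
    · rintro ⟨h, h'⟩
      obtain ⟨x, hx, hxk⟩ := mem_image.1 h'
      have h5 := (mem_Up.1 h).1.2 x hx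
      have h6 := hrk h5
      exact ⟨x, ⟨h5, by omega⟩, h, hx⟩
    · rintro ⟨B, ⟨hB, hB'⟩, h, h'⟩
      exact ⟨h, mem_image.2 ⟨B, h', by omega⟩⟩
  rw [h4, sum_biUnion]
  intro B hB B' hB' hne
  rw [Function.onFun, disjoint_left]
  intro c hc hc'
  rw [mem_filter] at hc hc'
  have hB := (mem_filter.1 hB).2
  have hB' := (mem_filter.1 hB').2
  rcases (mem_Up.1 hc.1).1.1 hc.2 hc'.2 hne with h | h
  · have := hrk (lt_of_le_of_ne h hne)
    omega
  · have := hrk (lt_of_le_of_ne h (Ne.symm hne))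
    omega

end Main

end Cfsg.Agent.H376.CC
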