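import Cfsg.Agent.H376.CC.EOne

/-!
# S4884, classical groups in cross characteristic: the recursion for `ρ` (helper376)
-/

set_option autoImplicit false

open Cfsg Finset

namespace Cfsg.Agent.H376.CC

open Cfsg.Agent.H439.CC

universe u v

/-- the weight of a set of relative ranks -/
def wt (K : Finset ℕ) : ℤ := if h : K.Nonempty then (-1) ^ (K.card + 1) * (K.min' h : ℤ) else 0

theorem coL_wt {k : ℕ} {K : Finset ℕ} (h1 : K ⊆ Icc 1 k) (hk : k ∈ K) : coL [k] K = wt K := by
  have h1' : ∀ x ∈ K, x ≤ k := fun x hx => (mem_Icc.1 (h1 hx)).2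
  have e4 : (K.filter fun x => k < x) = ∅ := by
    rw [filter_eq_empty_iff]
    intro x hx
    have := h1' x hx
    omega
  have e5 : (K.filter fun x => x < k) = K.erase k := by
    ext x
    rw [mem_filter, mem_erase]
    constructor
    · rintro ⟨h, h'⟩
      exact ⟨by omega, h⟩
    · rintro ⟨h, h'⟩
      have := h1' x h'
      exact ⟨h', by omega⟩
  have e6 : (K.erase k).card + 1 = K.card := card_erase_add_one hk
  rw [coL, dif_pos hk, e4, image_empty, coL, if_pos rfl, mul_one, wt, dif_pos ⟨k, hk⟩, e5, ← e6, pow_succ, pow_succ]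
  ring

theorem wt_singleton (k : ℕ) : wt {k} = k := by
  rw [wt, dif_pos (singleton_nonempty k), min'_singleton, card_singleton]
  norm_num

theorem wt_insert {k : ℕ} {K : Finset ℕ} (hne : K.Nonempty) (h : ∀ x ∈ K, x < k) : wt (insert k K) = - wt K := by
  have hk : k ∉ K := fun hk => (h k hk).false
  rw [wt, wt, dif_pos hne, dif_pos (insert_nonempty k K), card_insert_of_notMem hk, pow_succ _ (K.card + 1)]
  have h1 : (insert k K).min' (insert_nonempty k K) = K.min' hne := by
    apply le_antisymm
    · exact min'_le _ _ (mem_insert_of_mem (min'_mem _ _))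
    · apply le_min'
      intro x hx
      rcases mem_insert.1 hx with rfl | hx
      · exact (h _ (min'_mem _ hne)).le
      · exact min'_le _ _ hx
  rw [h1]
  ring

section Poset

variable {P : Type*} [PartialOrder P] [Fintype P]

theorem rho_wt {rk : P → ℕ} (hrk : StrictMono rk) {A B : P} (hAB : A < B) :
    rho rk (rk B - rk A) A B = ∑ c ∈ Ch A B, wt (RR rk A c) := by
  have h0 := hrk hAB
  rw [rho_eq hrk (show rk B = rk A + (rk B - rk A) by omega)]
  refine sum_congr rfl fun c hc => ?_
  rw [mem_Ch] at hc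
  refine coL_wt ?_ (mem_image_of_mem _ hc.2.2)
  intro n hn
  obtain ⟨x, hx, rfl⟩ := mem_image.1 hn
  have h1 := hrk (hc.2.1 x hx).1
  have h2 := hrk.monotone (hc.2.1 x hx).2
  rw [mem_Icc]
  omega

open Classical in
theorem sum_Ch {rk : P → ℕ} (hrk : StrictMono rk) {A B : P} (hAB : A < B) :
    ∑ c ∈ Ch A B, wt (RR rk A c) = (rk B - rk A : ℕ) -
      ∑ U ∈ univ.filter (fun U : P => A < U ∧ U < B), ∑ c ∈ Ch A U, wt (RR rk A c) := by
  have hB : {B} ∈ Ch A B := by
    rw [mem_Ch]
    refine ⟨?_, ?_, mem_singleton_self B⟩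
    · rw [coe_singleton]
      exact Set.subsingleton_singleton.isChain
    · intro x hx
      rw [mem_singleton] at hx
      subst hx
      exact ⟨hAB, le_rfl⟩
  rw [← add_sum_erase _ _ hB]
  have h1 : wt (RR rk A {B}) = (rk B - rk A : ℕ) := by
    rw [RR, image_singleton, wt_singleton]
  rw [h1, sub_eq_add_neg]
  congr 1
  rw [← sum_biUnion, ← sum_neg_distrib]
  · refine sum_nbij' (fun c => c.erase B) (fun c => insert B c) ?_ ?_ ?_ ?_ ?_
    · intro c hc
      rw [mem_erase, mem_Ch] at hc
      obtain ⟨hne, h2, h3, h4⟩ := hc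
      have h5 : (c.erase B).Nonempty := by
        rw [nonempty_iff_ne_empty]
        intro h
        apply hne
        rw [erase_eq_empty_iff] at h
        rcases h with h | h
        · rw [h] at h4
          exact absurd h4 (notMem_empty _)
        · exact h
      obtain ⟨U, hU, hmax⟩ := exists_max_image (c.erase B) rk h5
      have hU' := mem_erase.1 hU
      rw [mem_biUnion]
      refine ⟨U, ?_, ?_⟩
      · rw [mem_filter]
        exact ⟨mem_univ _, (h3 U hU'.2).1, lt_of_le_of_ne (h3 U hU'.2).2 hU'.1⟩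
      · rw [mem_Ch]
        refine ⟨h2.mono (by rw [coe_subset]; exact erase_subset _ _), ?_, hU⟩
        intro x hx
        refine ⟨(h3 x (mem_of_mem_erase hx)).1, ?_⟩
        by_cases hxU : x = U
        · exact hxU.le
        · rcases h2 (mem_of_mem_erase hx) hU'.2 hxU with h | h
          · exact h
          · have h6 := hrk (lt_of_le_of_ne h (Ne.symm hxU))
            have h7 := hmax x hx
            omega
    · intro c hc
      rw [mem_biUnion] at hc
      obtain ⟨U, hU, hc⟩ := hc
      rw [mem_filter] at hU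
      rw [mem_Ch] at hc
      obtain ⟨-, hAU, hUB⟩ := hU
      obtain ⟨h2, h3, h4⟩ := hc
      rw [mem_erase, mem_Ch]
      refine ⟨?_, ?_, ?_, mem_insert_self _ _⟩
      · intro h
        have h5 : U ∈ insert B c := mem_insert_of_mem h4
        rw [h, mem_singleton] at h5
        exact hUB.ne h5
      · rw [coe_insert]
        refine h2.insert fun b hb _ => Or.inr ?_
        exact (h3 b hb).2.trans hUB.le
      · intro x hx
        rcases mem_insert.1 hx with rfl | hx
        · exact ⟨hAB, le_rfl⟩
        · exact ⟨(h3 x hx).1, (h3 x hx).2.trans hUB.le⟩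
    · intro c hc
      rw [mem_erase, mem_Ch] at hc
      exact insert_erase hc.2.2.2
    · intro c hc
      rw [mem_biUnion] at hc
      obtain ⟨U, hU, hc⟩ := hc
      rw [mem_filter] at hU
      rw [mem_Ch] at hc
      refine erase_insert fun h => ?_
      exact absurd (hc.2.1 B h).2 hU.2.2.not_ge
    · intro c hc
      rw [mem_erase, mem_Ch] at hc
      obtain ⟨hne, h2, h3, h4⟩ := hc
      have h5 : (c.erase B).Nonempty := by
        rw [nonempty_iff_ne_empty]
        intro h
        apply hne
        rw [erase_eq_empty_iff] at h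
        rcases h with h | h
        · rw [h] at h4
          exact absurd h4 (notMem_empty _)
        · exact h
      have h6 : RR rk A c = insert (rk B - rk A) (RR rk A (c.erase B)) := by
        nth_rewrite 1 [← insert_erase h4]
        rw [RR, image_insert]
        rfl
      rw [h6]
      refine wt_insert (h5.image _) ?_
      intro n hn
      obtain ⟨x, hx, rfl⟩ := mem_image.1 hn
      rw [mem_erase] at hx
      have h7 := hrk (h3 x hx.2).1
      have h8 := hrk (lt_of_le_of_ne (h3 x hx.2).2 hx.1)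
      omega
  · intro U _ U' _ hne
    rw [Function.onFun, disjoint_left]
    intro c hc hc'
    rw [mem_Ch] at hc hc'
    exact hne (le_antisymm (hc'.2.1 U hc.2.2).2 (hc.2.1 U' hc'.2.2).2)

open Classical in
/-- **the recursion** -/
theorem rho_rec {rk : P → ℕ} (hrk : StrictMono rk) {A B : P} (hAB : A < B) :
    ∑ U ∈ univ.filter (fun U : P => A < U ∧ U ≤ B), rho rk (rk U - rk A) A U = (rk B - rk A : ℕ) := by
  have h1 : univ.filter (fun U : P => A < U ∧ U ≤ B) = insert B (univ.filter (fun U : P => A < U ∧ U < B)) := by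
    ext U
    simp only [mem_filter, mem_univ, true_and, mem_insert]
    constructor
    · rintro ⟨h, h'⟩
      rcases h'.eq_or_lt with h2 | h2
      · exact Or.inl h2
      · exact Or.inr ⟨h, h2⟩
    · rintro (rfl | h)
      · exact ⟨hAB, le_rfl⟩
      · exact ⟨h.1, h.2.le⟩
  have h2 : B ∉ univ.filter (fun U : P => A < U ∧ U < B) := by
    simp
  rw [h1, sum_insert h2, rho_wt hrk hAB, sum_Ch hrk hAB]
  rw [sub_add_eq_add_sub, add_sub_assoc, add_eq_left, sub_eq_zero]
  refine sum_congr rfl fun U hU => ?_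
  rw [mem_filter] at hU
  exact rho_wt hrk hU.2.1

/-- vanishing of `ρ` for a product -/
theorem rho_zero {rk : P → ℕ} (hrk : StrictMono rk) {A B B1 B2 : P} (h1 : A < B1) (h1' : B1 < B) (h2 : A < B2) (h2' : B2 < B)
    (hr : rk B1 + rk B2 = rk A + rk B)
    (h : ∀ U, A < U → U < B → (U ≤ B1 ∧ ¬ U ≤ B2) ∨ (U ≤ B2 ∧ ¬ U ≤ B1) ∨
      (rho rk (rk U - rk A) A U = 0 ∧ ¬ U ≤ B1 ∧ ¬ U ≤ B2)) :
    rho rk (rk B - rk A) A B = 0 := by
  classical
  have hAB := h1.trans h1'
  have h3 := rho_rec hrk hAB
  have h4 := rho_rec hrk h1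
  have h5 := rho_rec hrk h2
  have e0 : univ.filter (fun U : P => A < U ∧ U ≤ B) = insert B (univ.filter (fun U : P => A < U ∧ U < B)) := by
    ext U
    simp only [mem_filter, mem_univ, true_and, mem_insert]
    constructor
    · rintro ⟨h, h'⟩
      rcases h'.eq_or_lt with h2 | h2
      · exact Or.inl h2
      · exact Or.inr ⟨h, h2⟩
    · rintro (rfl | h)
      · exact ⟨hAB, le_rfl⟩
      · exact ⟨h.1, h.2.le⟩
  have e1 : B ∉ univ.filter (fun U : P => A < U ∧ U < B) := by
    simp
  rw [e0, sum_insert e1] at h3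
  have h6 : ∑ U ∈ univ.filter (fun U : P => A < U ∧ U < B), rho rk (rk U - rk A) A U =
      ∑ U ∈ univ.filter (fun U : P => A < U ∧ U ≤ B1), rho rk (rk U - rk A) A U +
      ∑ U ∈ univ.filter (fun U : P => A < U ∧ U ≤ B2), rho rk (rk U - rk A) A U := by
    rw [sum_filter, sum_filter, sum_filter, ← sum_add_distrib]
    refine sum_congr rfl fun U _ => ?_
    by_cases hAU : A < U
    · by_cases hUB : U < B
      · rw [if_pos ⟨hAU, hUB⟩]
        rcases h U hAU hUB with ⟨a, b⟩ | ⟨a, b⟩ | ⟨a, b, c⟩
        · rw [if_pos ⟨hAU, a⟩, if_neg (fun h => b h.2), add_zero]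
        · rw [if_neg (fun h => b h.2), if_pos ⟨hAU, a⟩, zero_add]
        · rw [a, if_neg (fun h => b h.2), if_neg (fun h => c h.2), add_zero]
      · rw [if_neg (fun h => hUB h.2), if_neg (fun h => hUB (h.2.trans_lt h1')), if_neg (fun h => hUB (h.2.trans_lt h2')),
          add_zero]
    · rw [if_neg (fun h => hAU h.1), if_neg (fun h => hAU h.1), if_neg (fun h => hAU h.1), add_zero]
  rw [h6, h4, h5] at h3
  have g1 := hrk h1
  have g1' := hrk h1'
  have g2 := hrk h2
  have g2' := hrk h2'
  have h7 : ((rk B1 - rk A : ℕ) : ℤ) + ((rk B2 - rk A : ℕ) : ℤ) = ((rk B - rk A : ℕ) : ℤ) := by omega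
  rw [h7] at h3
  exact add_eq_right.1 h3

end Poset

end Cfsg.Agent.H376.CC
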