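import Cfsg.Agent.H376.CC.ERec

/-!
# S4884, classical groups in cross characteristic: vanishing (E2) of `ρ` for non-primary quotients (helper376)
-/

set_option autoImplicit false

open Cfsg Finset

namespace Cfsg.Agent.H376.CC

open Cfsg.Agent.H439.CC Polynomial

universe u v

section Lin

variable {F : Type u} [Field F] {V : Type v} [AddCommGroup V] [Module F V]

theorem rkS_strictMono [Module.Finite F V] (Adm : Submodule F V → Prop) (X : Set (V ≃ₗ[F] V)) : StrictMono (rkS Adm X) :=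
  fun _ _ h => Submodule.finrank_lt_finrank_of_lt h

theorem aeval_stable {x : V ≃ₗ[F] V} {U : Submodule F V} (hU : ∀ v ∈ U, x v ∈ U) (p : F[X]) :
    ∀ v ∈ U, (Polynomial.aeval (x : V →ₗ[F] V) p : V →ₗ[F] V) v ∈ U := by
  induction p using Polynomial.induction_on with
  | C a =>
    intro v hv
    rw [aeval_C, Module.algebraMap_end_apply]
    exact U.smul_mem a hv
  | add p q hp hq =>
    intro v hv
    rw [map_add, LinearMap.add_apply]
    exact U.add_mem (hp v hv) (hq v hv)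
  | monomial n a h =>
    intro v hv
    rw [pow_succ, ← mul_assoc, map_mul, aeval_X]
    exact h _ (hU v hv)

theorem map_eq_stable {x : V ≃ₗ[F] V} {U : Submodule F V} (hU : U.map (x : V →ₗ[F] V) = U) : ∀ v ∈ U, x v ∈ U := by
  intro v hv
  rw [← hU]
  exact Submodule.mem_map_of_mem hv

theorem aeval_comm {x y : V ≃ₗ[F] V} (h : x * y = y * x) (p : F[X]) (v : V) :
    (Polynomial.aeval (x : V →ₗ[F] V) p : V →ₗ[F] V) (y v) = y ((Polynomial.aeval (x : V →ₗ[F] V) p : V →ₗ[F] V) v) := by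
  induction p using Polynomial.induction_on generalizing v with
  | C a =>
    rw [aeval_C, Module.algebraMap_end_apply, Module.algebraMap_end_apply, map_smul]
  | add p q hp hq =>
    rw [map_add, LinearMap.add_apply, LinearMap.add_apply, hp, hq, map_add]
  | monomial n a h' =>
    rw [pow_succ, ← mul_assoc, map_mul, aeval_X]
    have h1 : x (y v) = y (x v) := by
      have h2 : (x * y) v = (y * x) v := by rw [h]
      exact h2
    change (Polynomial.aeval (x : V →ₗ[F] V) (C a * X ^ n) : V →ₗ[F] V) (x (y v)) =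
      y ((Polynomial.aeval (x : V →ₗ[F] V) (C a * X ^ n) : V →ₗ[F] V) (x v))
    rw [h1, h']

theorem aeval_mul_apply (x : V ≃ₗ[F] V) (p q : F[X]) (v : V) :
    (Polynomial.aeval (x : V →ₗ[F] V) (p * q) : V →ₗ[F] V) v =
      (Polynomial.aeval (x : V →ₗ[F] V) p : V →ₗ[F] V) ((Polynomial.aeval (x : V →ₗ[F] V) q : V →ₗ[F] V) v) := by
  rw [map_mul]
  rfl

/-- the vectors of `B` mapped into `A` by `p(x)` -/
noncomputable def sub (x : V ≃ₗ[F] V) (p : F[X]) (A B : Submodule F V) : Submodule F V :=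
  B ⊓ A.comap (Polynomial.aeval (x : V →ₗ[F] V) p : V →ₗ[F] V)

theorem mem_sub {x : V ≃ₗ[F] V} {p : F[X]} {A B : Submodule F V} {v : V} :
    v ∈ sub x p A B ↔ v ∈ B ∧ (Polynomial.aeval (x : V →ₗ[F] V) p : V →ₗ[F] V) v ∈ A := Iff.rfl

theorem sub_stable [Module.Finite F V] {x y : V ≃ₗ[F] V} (h : x * y = y * x) (p : F[X]) {A B : Submodule F V}
    (hA : A.map (y : V →ₗ[F] V) = A) (hB : B.map (y : V →ₗ[F] V) = B) : (sub x p A B).map (y : V →ₗ[F] V) = sub x p A B := by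
  have h1 : (sub x p A B).map (y : V →ₗ[F] V) ≤ sub x p A B := by
    rintro _ ⟨v, hv, rfl⟩
    rw [SetLike.mem_coe, mem_sub] at hv
    rw [mem_sub]
    refine ⟨map_eq_stable hB v hv.1, ?_⟩
    change (Polynomial.aeval (x : V →ₗ[F] V) p : V →ₗ[F] V) (y v) ∈ A
    rw [aeval_comm h]
    exact map_eq_stable hA _ hv.2
  exact Submodule.eq_of_le_of_finrank_eq h1 (LinearEquiv.finrank_map_eq y _)

theorem finrank_sub [Module.Finite F V] {x : V ≃ₗ[F] V} {p₁ p₂ : F[X]} (hc : IsCoprime p₁ p₂) {A B : Submodule F V} (hAB : A ≤ B)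
    (hA : A.map (x : V →ₗ[F] V) = A) (hB : B.map (x : V →ₗ[F] V) = B)
    (h : ∀ v ∈ B, (Polynomial.aeval (x : V →ₗ[F] V) (p₁ * p₂) : V →ₗ[F] V) v ∈ A) :
    Module.finrank F (sub x p₁ A B) + Module.finrank F (sub x p₂ A B) = Module.finrank F A + Module.finrank F B := by
  obtain ⟨a, b, hab⟩ := hc
  have h1 : ∀ v, (Polynomial.aeval (x : V →ₗ[F] V) a : V →ₗ[F] V) ((Polynomial.aeval (x : V →ₗ[F] V) p₁ : V →ₗ[F] V) v) +
      (Polynomial.aeval (x : V →ₗ[F] V) b : V →ₗ[F] V) ((Polynomial.aeval (x : V →ₗ[F] V) p₂ : V →ₗ[F] V) v) = v := by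
    intro v
    rw [← aeval_mul_apply, ← aeval_mul_apply, ← LinearMap.add_apply, ← map_add, hab, map_one]
    rfl
  have h2 : sub x p₁ A B ⊔ sub x p₂ A B = B := by
    apply le_antisymm
    · exact sup_le inf_le_left inf_le_left
    · intro v hv
      have hsA := map_eq_stable hA
      have hsB := map_eq_stable hB
      refine Submodule.mem_sup.2 ⟨_, ?_, _, ?_, (add_comm _ _).trans (h1 v)⟩
      · rw [mem_sub]
        refine ⟨aeval_stable hsB b _ (aeval_stable hsB p₂ v hv), ?_⟩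
        rw [← aeval_mul_apply, ← aeval_mul_apply, show p₁ * b * p₂ = b * (p₁ * p₂) by ring, aeval_mul_apply]
        exact aeval_stable hsA b _ (h v hv)
      · rw [mem_sub]
        refine ⟨aeval_stable hsB a _ (aeval_stable hsB p₁ v hv), ?_⟩
        rw [← aeval_mul_apply, ← aeval_mul_apply, show p₂ * a * p₁ = a * (p₁ * p₂) by ring, aeval_mul_apply]
        exact aeval_stable hsA a _ (h v hv)
  have h3 : sub x p₁ A B ⊓ sub x p₂ A B = A := by
    apply le_antisymm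
    · rintro v ⟨hv1, hv2⟩
      rw [SetLike.mem_coe, mem_sub] at hv1 hv2
      rw [← h1 v]
      exact A.add_mem (aeval_stable (map_eq_stable hA) a _ hv1.2) (aeval_stable (map_eq_stable hA) b _ hv2.2)
    · intro v hv
      exact ⟨⟨hAB hv, aeval_stable (map_eq_stable hA) p₁ v hv⟩, ⟨hAB hv, aeval_stable (map_eq_stable hA) p₂ v hv⟩⟩
  have h4 := Submodule.finrank_sup_add_finrank_inf_eq (sub x p₁ A B) (sub x p₂ A B)
  rw [h2, h3] at h4
  omega

theorem sub_inf_sub {x : V ≃ₗ[F] V} {p₁ p₂ : F[X]} (hc : IsCoprime p₁ p₂) {A B : Submodule F V}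
    (hA : A.map (x : V →ₗ[F] V) = A) : sub x p₁ A B ⊓ sub x p₂ A B ≤ A := by
  obtain ⟨a, b, hab⟩ := hc
  rintro v ⟨hv1, hv2⟩
  rw [SetLike.mem_coe, mem_sub] at hv1 hv2
  have h1 : (Polynomial.aeval (x : V →ₗ[F] V) a : V →ₗ[F] V) ((Polynomial.aeval (x : V →ₗ[F] V) p₁ : V →ₗ[F] V) v) +
      (Polynomial.aeval (x : V →ₗ[F] V) b : V →ₗ[F] V) ((Polynomial.aeval (x : V →ₗ[F] V) p₂ : V →ₗ[F] V) v) = v := by
    rw [← aeval_mul_apply, ← aeval_mul_apply, ← LinearMap.add_apply, ← map_add, hab, map_one]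
    rfl
  rw [← h1]
  exact A.add_mem (aeval_stable (map_eq_stable hA) a _ hv1.2) (aeval_stable (map_eq_stable hA) b _ hv2.2)

theorem lt_sub {x : V ≃ₗ[F] V} {p₁ p₂ : F[X]} {A B : Submodule F V} (hAB : A ≤ B)
    (hA : A.map (x : V →ₗ[F] V) = A) (hB : B.map (x : V →ₗ[F] V) = B)
    (h : ∀ v ∈ B, (Polynomial.aeval (x : V →ₗ[F] V) (p₁ * p₂) : V →ₗ[F] V) v ∈ A)
    (h2 : ¬ ∀ v ∈ B, (Polynomial.aeval (x : V →ₗ[F] V) p₂ : V →ₗ[F] V) v ∈ A) : A < sub x p₁ A B := by
  refine lt_of_le_of_ne ?_ ?_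
  · intro v hv
    exact ⟨hAB hv, aeval_stable (map_eq_stable hA) p₁ v hv⟩
  · intro he
    apply h2
    intro v hv
    rw [he, mem_sub]
    exact ⟨aeval_stable (map_eq_stable hB) p₂ v hv, by rw [← aeval_mul_apply]; exact h v hv⟩

theorem sub_lt {x : V ≃ₗ[F] V} {p₁ : F[X]} {A B : Submodule F V}
    (h2 : ¬ ∀ v ∈ B, (Polynomial.aeval (x : V →ₗ[F] V) p₁ : V →ₗ[F] V) v ∈ A) : sub x p₁ A B < B := by
  refine lt_of_le_of_ne inf_le_left ?_
  intro he
  apply h2
  intro v hv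
  rw [← he, mem_sub] at hv
  exact hv.2

end Lin

theorem e2 : E2.{u, v} := by
  classical
  intro F _ _ V _ _ _ Adm hAdm X x hx hcomm A B k hAB hk hprim
  have : Finite V := Module.finite_of_finite F
  have : Finite (Submodule F V) := inferInstance
  have : Finite (StP Adm X) := inferInstanceAs (Finite {U : Submodule F V // Adm U ∧ ∀ x ∈ X, U.map (x : V →ₗ[F] V) = U})
  have := Fintype.ofFinite (StP Adm X)
  have hrk := rkS_strictMono Adm X
  have hk' : k = rkS Adm X B - rkS Adm X A := by omega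
  subst hk'
  clear hk
  simp only [Prim, not_forall] at hprim
  obtain ⟨p₁, p₂, hc, hpp, hprim⟩ := hprim
  rw [not_or] at hprim
  obtain ⟨hn1, hn2⟩ := hprim
  -- induction on `B`
  induction hn : rkS Adm X B using Nat.strong_induction_on generalizing B with
  | _ n ih =>
    have hAB' : A.1 ≤ B.1 := hAB.le
    have hpp' : ∀ v ∈ B.1, (Polynomial.aeval (x : V →ₗ[F] V) (p₂ * p₁) : V →ₗ[F] V) v ∈ A.1 := by
      rw [mul_comm]; exact hpp
    let B1 : StP Adm X := ⟨sub x p₁ A.1 B.1, hAdm _ _ inf_le_left B.2.1,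
      fun y hy => sub_stable (hcomm y hy) p₁ (A.2.2 y hy) (B.2.2 y hy)⟩
    let B2 : StP Adm X := ⟨sub x p₂ A.1 B.1, hAdm _ _ inf_le_left B.2.1,
      fun y hy => sub_stable (hcomm y hy) p₂ (A.2.2 y hy) (B.2.2 y hy)⟩
    have g1 : A < B1 := lt_sub hAB' (A.2.2 x hx) (B.2.2 x hx) hpp hn2
    have g1' : B1 < B := sub_lt hn1
    have g2 : A < B2 := lt_sub hAB' (A.2.2 x hx) (B.2.2 x hx) hpp' hn1
    have g2' : B2 < B := sub_lt hn2
    have g3 : rkS Adm X B1 + rkS Adm X B2 = rkS Adm X A + rkS Adm X B :=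
      finrank_sub hc hAB' (A.2.2 x hx) (B.2.2 x hx) hpp
    rw [← hn]
    refine rho_zero hrk g1 g1' g2 g2' g3 ?_
    intro U hAU hUB
    have hUB' : U.1 ≤ B.1 := hUB.le
    by_cases a1 : U ≤ B1
    · by_cases a2 : U ≤ B2
      · exfalso
        have h5 : U.1 ≤ A.1 := (le_inf a1 a2).trans (sub_inf_sub hc (A.2.2 x hx))
        exact absurd h5 hAU.not_ge
      · exact Or.inl ⟨a1, a2⟩
    · by_cases a2 : U ≤ B2
      · exact Or.inr (Or.inl ⟨a2, a1⟩)
      · refine Or.inr (Or.inr ⟨?_, a1, a2⟩)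
        refine ih (rkS Adm X U) (by rw [← hn]; exact hrk hUB) U hAU ?_ ?_ ?_ rfl
        · exact fun v hv => hpp v (hUB' hv)
        · intro hcon
          exact a1 fun v hv => ⟨hUB' hv, hcon v hv⟩
        · intro hcon
          exact a2 fun v hv => ⟨hUB' hv, hcon v hv⟩

end Cfsg.Agent.H376.CC
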